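import Cfsg.Agent.H90.TensorWreathSU.Global
import Cfsg.Agent.H5.C7.Linear
import Cfsg.Agent.H58.Wreath.Transport

/-!
The stabiliser of a tensor power decomposition is maximal in the special unitary group, given the splitting of
roots at a factor with scalar layers and all transvections from a factor with a non-scalar layer.
-/

set_option autoImplicit false
set_option linter.unusedSectionVars false
set_option maxHeartbeats 400000

namespace Cfsg.Agent.H90.TensorWreathSU

open Matrix
open Cfsg.Agent.H99.Tensor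
open Cfsg.Agent.H99.TensorU (sp suP)
open Cfsg.Agent.H5.C7 (wm sl rI slotM IsWreath)
open Cfsg.Agent.H58.Wreath.SU
open scoped Kronecker

section General

variable {F : Type*} [Field F] [StarRing F] {ι : Type} [Fintype ι] [DecidableEq ι] {m : ℕ}

local notation "MM" => Matrix (ι → Fin m) (ι → Fin m) F
local notation "mm" => Matrix (Fin m) (Fin m) F

theorem wm_conjTranspose (π : Equiv.Perm ι) (k : ι → mm) :
    (wm π k : MM)ᴴ = wm π⁻¹ fun j => (k (π⁻¹ j))ᴴ := by
  ext f g
  rw [conjTranspose_apply, H5.C7.wm_apply, H5.C7.wm_apply, ← starRingEnd_apply, map_prod,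
    ← Equiv.prod_comp π⁻¹]
  exact Finset.prod_congr rfl fun j _ => by simp [starRingEnd_apply]

theorem sl_conjTranspose (i : ι) (h : mm) : (sl i h : MM)ᴴ = sl i hᴴ := by
  rw [sl, sl, wm_conjTranspose, inv_one]
  congr 1
  funext j
  simp only [Equiv.Perm.one_apply]
  by_cases hj : j = i
  · subst hj; simp
  · simp [hj]

theorem perm_unitary (σ : Equiv.Perm ι) :
    (wm σ (fun _ => 1) : MM) * (wm σ (fun _ => 1) : MM)ᴴ = 1 := by
  rw [wm_conjTranspose, H5.C7.wm_mul, inv_mul_cancel, ← H5.C7.wm_one]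
  congr 1
  funext j
  simp

omit [StarRing F] in
theorem det_perm_mul_self (σ : Equiv.Perm ι) (hsw : σ.IsSwap) :
    (wm σ (fun _ => 1) : MM).det * (wm σ (fun _ => 1) : MM).det = 1 := by
  obtain ⟨a, b, -, rfl⟩ := hsw
  rw [← det_mul, H5.C7.wm_mul, Equiv.swap_mul_self]
  simp [H5.C7.wm_one]

omit [StarRing F] in
theorem det_perm_sq (σ : Equiv.Perm ι) :
    (wm σ (fun _ => 1) : MM).det * (wm σ (fun _ => 1) : MM).det = 1 := by
  induction σ using Equiv.Perm.swap_induction_on with
  | one => rw [H5.C7.wm_one, det_one, mul_one]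
  | swap_mul σ x y hxy ih =>
    have e : (wm (Equiv.swap x y * σ) (fun _ => 1) : MM) = wm σ (fun _ => 1) * wm (Equiv.swap x y) fun _ => 1 := by
      rw [H5.C7.wm_mul]; simp
    rw [e, det_mul]
    have hs := det_perm_mul_self (F := F) (m := m) (Equiv.swap x y) ⟨x, y, hxy, rfl⟩
    linear_combination (wm (Equiv.swap x y) (fun _ => 1) : MM).det * (wm (Equiv.swap x y) (fun _ => 1) : MM).det * ih + hs

omit [StarRing F] in
/-- With at least three factors of even dimension permutations of factors have determinant one. -/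
theorem det_perm_even (hm : Even m) (hι : 3 ≤ Fintype.card ι) (σ : Equiv.Perm ι) :
    (wm σ (fun _ => 1) : MM).det = 1 := by
  induction σ using Equiv.Perm.swap_induction_on with
  | one => rw [H5.C7.wm_one, det_one]
  | swap_mul σ a b hab ih =>
    have e : (wm (Equiv.swap a b * σ) (fun _ => 1) : MM) = wm σ (fun _ => 1) * wm (Equiv.swap a b) fun _ => 1 := by
      rw [H5.C7.wm_mul]; simp
    rw [e, det_mul, ih, one_mul]
    obtain ⟨i, hia, hib⟩ : ∃ i, i ≠ a ∧ i ≠ b := by
      by_contra hc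
      push Not at hc
      have : (Finset.univ : Finset ι) ⊆ {a, b} := fun x _ => by
        by_cases hx : x = a
        · simp [hx]
        · simp [hc x hx]
      have := Finset.card_le_card this
      have := Finset.card_le_two (a := a) (b := b)
      rw [Finset.card_univ] at *
      omega
    have hfix : Equiv.swap a b i = i := Equiv.swap_apply_of_ne_of_ne hia hib
    obtain ⟨r, hr⟩ := hm
    rw [← H5.C7.det_rI i, H5.C7.rI_wm i _ hfix (H5.C7.perm_ne_iff hfix), Matrix.det_kronecker, Matrix.det_one,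
      one_pow, mul_one, Fintype.card_fin, hr, pow_add, ← mul_pow, det_perm_sq, one_pow]

/-- A permutation of the factors times a scalar, in the special unitary group. -/
theorem exists_perm_scalar (hι : 3 ≤ Fintype.card ι) (σ : Equiv.Perm ι) :
    ∃ c : F, (c • (wm σ fun _ => 1) : MM) * (c • (wm σ fun _ => 1) : MM)ᴴ = 1 ∧
      (c • (wm σ fun _ => 1) : MM).det = 1 := by
  rcases Nat.even_or_odd m with hm | hm
  · exact ⟨1, by rw [one_smul]; exact perm_unitary σ, by rw [one_smul]; exact det_perm_even hm hι σ⟩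
  · set c := (wm σ (fun _ => 1) : MM).det with hc
    have h2 : c * c = 1 := det_perm_sq σ
    have hs : star c = c := by
      rcases mul_self_eq_one_iff.1 h2 with h | h <;> simp [h]
    refine ⟨c, ?_, ?_⟩
    · rw [conjTranspose_smul, Matrix.smul_mul, Matrix.mul_smul, smul_smul, hs, h2, one_smul]
      exact perm_unitary σ
    · rw [det_smul, ← hc, Fintype.card_fun, Fintype.card_fin]
      obtain ⟨r, hr⟩ := hm.pow (n := Fintype.card ι)
      rw [hr, pow_succ, pow_mul, pow_two, h2, one_pow, one_mul, h2]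

omit [StarRing F] in
/-- A matrix equal to one off two rows with all coordinates different is not monomial. -/
theorem not_isWreath_of_three {X : MM} (hι : 2 ≤ Fintype.card ι) {a b c : Fin m} (hab : a ≠ b) (hac : a ≠ c)
    (hbc : b ≠ c) (hc : X (fun _ => c) (fun _ => c) ≠ 0) (hfg : X (fun _ => a) (fun _ => b) ≠ 0)
    (hid : ∀ p q : ι → Fin m, (∃ l, p l = c) → p ≠ q → X p q = 0) : ¬ IsWreath X := by
  rintro ⟨π, k, rfl⟩
  rw [H5.C7.wm_apply, Finset.prod_ne_zero_iff] at hc hfg
  obtain ⟨l₁, l₂, hl⟩ := Fintype.exists_pair_of_one_lt_card (show 1 < Fintype.card ι by omega)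
  set p : ι → Fin m := Function.update (fun _ => c) l₁ a with hp
  set q : ι → Fin m := Function.update (fun _ => c) (π l₁) b with hq
  have hpq : p ≠ q := by
    intro e
    have h1 := congrFun e (π l₁)
    rw [hq, Function.update_self] at h1
    by_cases h : π l₁ = l₁
    · rw [h, hp, Function.update_self] at h1
      exact hab h1
    · rw [hp, Function.update_of_ne h] at h1
      exact hbc h1.symm
  have hX := hid p q ⟨l₂, by rw [hp, Function.update_of_ne hl.symm]⟩ hpq
  rw [H5.C7.wm_apply, Finset.prod_eq_zero_iff] at hX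
  obtain ⟨j, -, hj⟩ := hX
  by_cases h : j = l₁
  · subst h
    rw [hp, hq, Function.update_self, Function.update_self] at hj
    exact hfg j (Finset.mem_univ j) hj
  · rw [hp, hq, Function.update_of_ne h, Function.update_of_ne (π.injective.ne h)] at hj
    exact hc j (Finset.mem_univ j) hj

/-- Some special isometry is not a monomial tensor. -/
theorem exists_not_wreath [Finite F] (hns : ∃ x : F, star x ≠ x) (hm : 3 ≤ m) (hι : 2 ≤ Fintype.card ι) :
    ∃ g ∈ suP F (ι → Fin m), ¬ IsWreath (g : MM) := by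
  classical
  obtain ⟨e₀, he₀⟩ := H99.TensorU.exists_norm hns (a := (-1 : F)) (by rw [star_neg, star_one])
  obtain ⟨d, hd0, hd⟩ := H99.TensorU.exists_skew hns
  have he0 : e₀ ≠ 0 := fun h => by simp [h] at he₀
  obtain ⟨i⟩ : Nonempty ι := Fintype.card_pos_iff.1 (by omega)
  set a : Fin m := ⟨0, by omega⟩
  set b : Fin m := ⟨1, by omega⟩
  set c : Fin m := ⟨2, by omega⟩
  have hab : a ≠ b := by simp [a, b, Fin.ext_iff]
  have hac : a ≠ c := by simp [a, c, Fin.ext_iff]
  have hbc : b ≠ c := by simp [b, c, Fin.ext_iff]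
  set f : ι → Fin m := fun _ => a with hf
  set g : ι → Fin m := fun _ => b with hg
  have hfg : f ≠ g := fun h => hab (congrFun h i)
  set v : (ι → Fin m) → F := Pi.single f 1 + e₀ • Pi.single g 1 with hv
  have hvv : sp v v = 0 := by
    simp only [hv, H99.TensorU.sp_add_left, H99.TensorU.sp_add_right, H99.TensorU.sp_smul_left,
      H99.TensorU.sp_smul_right, H99.TensorU.sp_single_left, Pi.single_eq_same, Pi.single_eq_of_ne hfg,
      Pi.single_eq_of_ne hfg.symm]
    linear_combination he₀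
  obtain ⟨hu, hdt⟩ := H99.TensorU.trans_unitary hvv hd
  refine ⟨GeneralLinearGroup.mkOfDetNeZero _ (by rw [hdt]; exact one_ne_zero), ⟨hu, hdt⟩, ?_⟩
  have hv0 : ∀ p : ι → Fin m, (∃ l, p l = c) → v p = 0 := by
    rintro p ⟨l, hl⟩
    have h1 : p ≠ f := fun h => hac (by rw [← hl, h, hf])
    have h2 : p ≠ g := fun h => hbc (by rw [← hl, h, hg])
    simp [hv, h1, h2]
  have hent : ∀ p q : ι → Fin m, (1 + d • vecMulVec v (star v) : MM) p q =
      (1 : MM) p q + d * (v p * star (v q)) := fun p q => rfl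
  refine not_isWreath_of_three hι hab hac hbc ?_ ?_ fun p q hp hpq => ?_
  · change (1 + d • vecMulVec v (star v) : MM) _ _ ≠ 0
    rw [hent, hv0 _ ⟨i, rfl⟩]
    simp
  · change (1 + d • vecMulVec v (star v) : MM) f g ≠ 0
    rw [hent, Matrix.one_apply_ne hfg]
    simp [hv, hfg, hfg.symm, hd0, he0]
  · change (1 + d • vecMulVec v (star v) : MM) p q = 0
    rw [hent, hv0 p hp, Matrix.one_apply_ne hpq]
    simp

end General

section Body

variable {F : Type*} [Field F] [Fintype F] {k t q : ℕ}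

open Cfsg.Geo in
/-- All transvections generate the special unitary group of the tensor power. -/
theorem suP_le_of_centre [StarRing F] (hF : Fintype.card F = q ^ 2) (hstar : ∀ x : F, star x = x ^ q) (hk : 3 ≤ k)
    (ht : 2 ≤ t) {M : Subgroup (GL (Fin t → Fin k) F)}
    (hM : ∀ v : (Fin t → Fin k) → F, sp v v = 0 → Centre M v) : suP F (Fin t → Fin k) ≤ M := by
  classical
  set n := Fintype.card (Fin t → Fin k) with hn
  let e : Fin n ≃ (Fin t → Fin k) := (Fintype.equivFin _).symm
  have hn4 : 4 ≤ n := by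
    rw [hn, Fintype.card_fun, Fintype.card_fin, Fintype.card_fin]
    calc 4 ≤ 3 ^ 2 := by norm_num
      _ ≤ k ^ 2 := Nat.pow_le_pow_left hk 2
      _ ≤ k ^ t := Nat.pow_le_pow_right (by omega) ht
  have hsp : ∀ u v : Fin n → F, Cfsg.hermForm n F q u v = sp v u := fun u v => by
    simp only [Cfsg.hermForm, sp, dotProduct, Pi.star_apply, hstar]
    exact Finset.sum_congr rfl fun i _ => mul_comm _ _
  let Φ : GL (Fin t → Fin k) F ≃* GL (Fin n) F := glReindex e.symm
  have hmat : ∀ y : GL (Fin t → Fin k) F, (Φ y : Matrix (Fin n) (Fin n) F) =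
      (y : Matrix (Fin t → Fin k) (Fin t → Fin k) F).submatrix e e := fun y => rfl
  have hle : Cfsg.GU n F q ⊓ specialLinear (Fin n) F ≤ M.map Φ.toMonoidHom := by
    refine H98.Herm.su_le_of_uT hF hn4 fun v hv d hd => ?_
    set w := v ∘ e.symm with hw
    have hww : sp w w = 0 := by
      rw [hsp] at hv
      rw [← hv]
      simp only [hw, sp, dotProduct, Pi.star_apply, Function.comp_apply]
      exact Equiv.sum_comp e.symm fun i => star (v i) * v i
    have hd' : star d = -d := by rw [hstar, ← hd]; exact (H98.Herm.frobQ_apply hF d).symm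
    obtain ⟨y, hy, hyE⟩ := hM w hww d hd'
    refine ⟨y, hy, H98.gl_ext fun x => ?_⟩
    rw [H98.Herm.uT_mulVec, hsp]
    change (Φ y : Matrix (Fin n) (Fin n) F) *ᵥ x = _
    have e3 : (1 + d • vecMulVec w (star w)).submatrix e e = 1 + d • vecMulVec v (star v) := by
      ext i j
      simp [hw, vecMulVec_apply, Matrix.one_apply]
    rw [hmat, hyE, e3, add_mulVec, one_mulVec, smul_mulVec, H99.TensorU.vmv_mulVec, smul_smul]
  intro g hg
  have hgmem : Φ g ∈ Cfsg.GU n F q ⊓ specialLinear (Fin n) F := by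
    refine ⟨(H58.Wreath.mem_GU _).2 fun u v => ?_, MonoidHom.mem_ker.2 (Units.ext ?_)⟩
    · have hA : (Φ g : Matrix (Fin n) (Fin n) F)ᴴ * (Φ g : Matrix (Fin n) (Fin n) F) = 1 := by
        rw [hmat, conjTranspose_submatrix, submatrix_mul_equiv, mul_eq_one_comm.1 hg.1, submatrix_one_equiv]
      rw [hsp, hsp, sp, sp, star_mulVec, ← dotProduct_mulVec, mulVec_mulVec, hA, one_mulVec]
    · change (Φ g : Matrix (Fin n) (Fin n) F).det = 1
      rw [hmat, det_submatrix_equiv_self, hg.2]
  obtain ⟨y, hy, hyg⟩ := hle hgmem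
  rwa [← Φ.injective hyg]

open Cfsg.Geo in
/-- In standard coordinates, given split roots and all transvections from a non-scalar layer. -/
theorem standard_maximal [StarRing F] (hF : Fintype.card F = q ^ 2) (hstar : ∀ x : F, star x = x ^ q) (hk : 3 ≤ k)
    (ht : 2 ≤ t) (hex : ¬ (q = 2 ∧ k = 3))
    (hroot : ∀ M : Subgroup (GL (Fin t → Fin k) F), Amb M → ∀ i, Good M i → ∀ B, Root (slotM i M) B →
      (∃ G : Matrix ({l : Fin t // l ≠ i} → Fin k) ({l : Fin t // l ≠ i} → Fin k) F,
        B = G ⊗ₖ (1 : Matrix (Fin k) (Fin k) F)) ∨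
      ∃ N : Matrix (Fin k) (Fin k) F,
        B = (1 : Matrix ({l : Fin t // l ≠ i} → Fin k) ({l : Fin t // l ≠ i} → Fin k) F) ⊗ₖ N)
    (hbad : ∀ M : Subgroup (GL (Fin t → Fin k) F), Amb M → ∀ i, ¬ Good M i →
      ∀ v : (Fin t → Fin k) → F, sp v v = 0 → Centre M v) :
    IsMaximalIn (suP F (Fin t → Fin k)) (tensorWreathStandard k t F ⊓ suP F (Fin t → Fin k)) := by
  classical
  have hns : ∃ x : F, star x ≠ x := by
    by_contra h
    push Not at h
    refine (H98.Herm.isUnitary_std (n := 1) hF).ne_refl (RingEquiv.ext fun x => ?_)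
    rw [H98.Herm.frobQ_apply, ← hstar]
    exact h x
  have hbig : 4 ≤ k ∨ ∃ r : F, star r = r ∧ r ≠ 0 ∧ r ≠ 1 := by
    by_cases h4 : 4 ≤ k
    · exact Or.inl h4
    right
    by_contra h
    push Not at h
    have hsub : {x : F | x ^ q = x} ⊆ ({0, 1} : Set F) := fun x hx => by
      by_cases h0 : x = 0
      · exact Or.inl h0
      · exact Or.inr (h x ((hstar x).trans hx) h0)
    have := Set.ncard_le_ncard hsub (Set.toFinite _)
    rw [← Nat.card_coe_set_eq, Set.coe_setOf, Cfsg.Agent.H3.card_fixed hF] at this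
    have h' : ({0, 1} : Set F).ncard ≤ 2 := by rw [Set.ncard_pair zero_ne_one]
    have := Cfsg.Agent.H3.two_le_q hF
    exact hex ⟨by omega, by omega⟩
  refine H98.isMaximalIn_of inf_le_right ?_ fun M hHM hMK g hg hgH => ?_
  · obtain ⟨g, hg, hgw⟩ := exists_not_wreath (ι := Fin t) (m := k) hns hk (by simpa using ht)
    exact ⟨g, hg, fun h => hgw (H5.C7.isWreath_of_mem_standard (by omega) h.1)⟩
  have hmem : ∀ {X : Matrix (Fin t → Fin k) (Fin t → Fin k) F}, IsWreath X → X * Xᴴ = 1 → X.det = 1 →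
      InG M X := fun {X} hX hu hd =>
    ⟨GeneralLinearGroup.mkOfDetNeZero X (by rw [hd]; exact one_ne_zero),
      hHM ⟨H5.C7.mem_standard_of_isWreath (by omega) hX, hu, hd⟩, rfl⟩
  have A : Amb M :=
    { ns := hns
      three := hk
      big := hbig
      two := by simpa using ht
      iso := fun y hy => (hMK hy).1
      slot := fun i h hh hd => hmem ⟨_, _, rfl⟩
        (by rw [sl_conjTranspose, H5.C7.sl_mul, hh, H5.C7.sl_one]) (by rw [H5.C7.det_sl, hd, one_pow])
      perm := fun h3 σ => by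
        obtain ⟨c, hu, hd⟩ := exists_perm_scalar (F := F) (m := k) h3 σ
        refine ⟨c, hmem ?_ hu hd⟩
        have hc : IsWreath (c • (1 : Matrix (Fin t → Fin k) (Fin t → Fin k) F)) :=
          ⟨1, Function.update (fun _ => 1) ⟨0, by omega⟩ (c • 1), by rw [← sl, H5.C7.sl_smul, H5.C7.sl_one]⟩
        have := hc.mul (⟨σ, fun _ => 1, rfl⟩ : IsWreath (wm σ fun _ => 1))
        rwa [Matrix.smul_mul, Matrix.one_mul] at this }
  by_cases hgood : ∀ i, Good M i
  · refine absurd ⟨H5.C7.mem_standard_of_isWreath (by omega) ?_, hMK hg⟩ hgH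
    exact TensorWreathSU.Amb.isWreath A (hroot M A) hgood ⟨g, hg, rfl⟩
  · push Not at hgood
    obtain ⟨i, hi⟩ := hgood
    exact suP_le_of_centre hF hstar hk ht (hbad M A i hi)

open Cfsg.Geo in
/-- The statement about the stabiliser of a tensor power decomposition, given the two cases. -/
theorem wreath_maximal_of (n : ℕ) (hF : Fintype.card F = q ^ 2) (hk : 3 ≤ k) (ht : 2 ≤ t)
    (hex : ¬ (q = 2 ∧ k = 3)) (e : Fin n ≃ (Fin t → Fin k)) (P : GL (Fin n) F)
    (f₁ : (Fin k → F) → (Fin k → F) → F) (hf₁ : IsUnitaryFormPow q f₁)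
    (hT : IsTensorPowerFormStructure (fun x : F => x ^ q) (Cfsg.hermForm n F q) f₁ e P)
    (hroot : ∀ [StarRing F] (M : Subgroup (GL (Fin t → Fin k) F)), Amb M → ∀ i, Good M i → ∀ B,
      Root (slotM i M) B →
      (∃ G : Matrix ({l : Fin t // l ≠ i} → Fin k) ({l : Fin t // l ≠ i} → Fin k) F,
        B = G ⊗ₖ (1 : Matrix (Fin k) (Fin k) F)) ∨
      ∃ N : Matrix (Fin k) (Fin k) F,
        B = (1 : Matrix ({l : Fin t // l ≠ i} → Fin k) ({l : Fin t // l ≠ i} → Fin k) F) ⊗ₖ N)
    (hbad : ∀ [StarRing F] (M : Subgroup (GL (Fin t → Fin k) F)), Amb M → ∀ i, ¬ Good M i →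
      ∀ v : (Fin t → Fin k) → F, sp v v = 0 → Centre M v) :
    IsMaximalIn (Cfsg.GU n F q ⊓ specialLinear (Fin n) F)
      (tensorWreathSubgroup k t e P ⊓ (Cfsg.GU n F q ⊓ specialLinear (Fin n) F)) :=
  H58.Wreath.su_wreath_maximal hF (by omega) (by omega) e P f₁ hf₁ hT fun hstar =>
    standard_maximal hF hstar hk ht hex hroot hbad

end Body

end Cfsg.Agent.H90.TensorWreathSU
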