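import Cfsg.Agent.H90.TensorWreathSU.Purity
import Cfsg.Agent.H90.TensorWreathSU.Standard
import Cfsg.Agent.H2.TensorWreathSU.Mover
import Cfsg.Agent.H83.TensorWreathSU.Two

/-!
Roots at a factor with scalar layers live in one factor.
-/

set_option autoImplicit false
set_option linter.unusedSectionVars false
set_option maxHeartbeats 400000

namespace Cfsg.Agent.H90.TensorWreathSU

open Matrix
open Cfsg.Agent.H99.Tensor
open Cfsg.Agent.H5.C7 (slotM)
open Cfsg.Agent.H58.Wreath.SU
open scoped Kronecker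

variable {F : Type*} [Field F] [StarRing F] [Finite F]

/-- Roots are pure. -/
theorem root_pure {α : Type} [Fintype α] [DecidableEq α] [Nonempty α] {b : ℕ}
    {M : Subgroup (GL (α × Fin b) F)} (H : Setup M)
    {B : Matrix (α × Fin b) (α × Fin b) F} (hB : Root M B) : IsPure (1 + B) :=
  root_pure_of H (fun S hnp hf => H2.TensorWreathSU.dp H S hnp hf)
    (fun S hnp hf hr h => H2.TensorWreathSU.mover H S hnp hf hr h)
    (fun h2 hb _ hB' => H83.TensorWreathSU.root_pure_two H h2 hb (fun S hnp hf => H2.TensorWreathSU.dp H S hnp hf) hB') hB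

theorem root_split_slot {ι : Type} [Fintype ι] [DecidableEq ι] {m : ℕ} {M : Subgroup (GL (ι → Fin m) F)}
    (A : Amb M) (i : ι) (hgood : Good M i) (B) (hB : Root (slotM i M) B) :
    (∃ G : Matrix ({l : ι // l ≠ i} → Fin m) ({l : ι // l ≠ i} → Fin m) F,
      B = G ⊗ₖ (1 : Matrix (Fin m) (Fin m) F)) ∨
    ∃ N : Matrix (Fin m) (Fin m) F,
      B = (1 : Matrix ({l : ι // l ≠ i} → Fin m) ({l : ι // l ≠ i} → Fin m) F) ⊗ₖ N := by
  have : NeZero m := ⟨by have := A.three; omega⟩
  exact H83.TensorWreathSU.root_split (A.setup i hgood) hB (root_pure (A.setup i hgood) hB)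

end Cfsg.Agent.H90.TensorWreathSU
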