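import Cfsg.Agent.H90.TensorWreathSU.Roots
import Cfsg.Agent.H58.Wreath.SU.Setup

/-!
Groups of isometries of the tensor power of a hermitian space with scalar layers at every factor consist of
monomial tensors, as soon as the roots at every factor split.
-/

set_option autoImplicit false
set_option linter.unusedSectionVars false
set_option maxHeartbeats 400000

namespace Cfsg.Agent.H90.TensorWreathSU

open Matrix
open Cfsg.Agent.H99.Tensor
open Cfsg.Agent.H99.TensorU (sp vmv_mul)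
open Cfsg.Agent.H5.C7 (wm sl rI eI slotM IsWreath)
open Cfsg.Agent.H58.Wreath.SU
open scoped Kronecker

variable {F : Type*} [Field F] [StarRing F] {ι : Type} [Fintype ι] [DecidableEq ι] {m : ℕ}
  {M : Subgroup (GL (ι → Fin m) F)}

local notation "MM" => Matrix (ι → Fin m) (ι → Fin m) F
local notation "mm" => Matrix (Fin m) (Fin m) F

/-- The inclusion of the other factors along a vector of the factor `i`. -/
def incl (i : ι) (v : Fin m → F) : Matrix (ι → Fin m) ({l : ι // l ≠ i} → Fin m) F :=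
  (lft ({l : ι // l ≠ i} → Fin m) v).submatrix (eI i) id

theorem incl_conjTranspose_mul (i : ι) (w v : Fin m → F) :
    (incl i w)ᴴ * incl i v = sp w v • (1 : Matrix ({l : ι // l ≠ i} → Fin m) ({l : ι // l ≠ i} → Fin m) F) := by
  rw [incl, incl, conjTranspose_submatrix, Matrix.submatrix_mul_equiv, H99.TensorU.lft_conjTranspose,
    rgt_mul_lft, submatrix_id_id, sp]

theorem incl_mul_conjTranspose (i : ι) (v : Fin m → F) :
    incl i v * (incl i v)ᴴ = sl i (vecMulVec v (star v)) := by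
  refine (rI i).injective ?_
  rw [H5.C7.rI_sl_self]
  change Matrix.reindexAlgEquiv F F (eI i) _ = _
  rw [Matrix.coe_reindexAlgEquiv, Matrix.reindex_apply, incl, conjTranspose_submatrix,
    H99.TensorU.lft_conjTranspose]
  rw [← Matrix.submatrix_mul _ _ _ id _ Function.bijective_id, submatrix_submatrix]
  simp only [Equiv.self_comp_symm, submatrix_id_id]
  ext ⟨a, x⟩ ⟨a', y⟩
  simp [Matrix.mul_apply, lft_apply, rgt_apply, Matrix.one_apply, vecMulVec_apply, ite_mul, mul_ite, eq_comm]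

theorem card_others_eq (i j : ι) :
    Fintype.card ({l : ι // l ≠ j} → Fin m) = Fintype.card ({l : ι // l ≠ i} → Fin m) := by
  rw [H5.C7.card_others, H5.C7.card_others]

theorem InG.mul {X Y : MM} (hX : InG M X) (hY : InG M Y) : InG M (X * Y) := by
  obtain ⟨x, hx, rfl⟩ := hX
  obtain ⟨y, hy, rfl⟩ := hY
  exact ⟨x * y, M.mul_mem hx hy, Units.val_mul x y⟩

theorem InG.inv (A : Amb M) {X : MM} (hX : InG M X) : InG M Xᴴ := by
  obtain ⟨x, hx, rfl⟩ := hX
  exact ⟨x⁻¹, M.inv_mem hx, Units.inv_eq_of_mul_eq_one_right (A.iso x hx)⟩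

/-- A transvection of the factor `i`, moved by a member, is a root at every factor. -/
theorem root_conj [Finite F] (A : Amb M) {X : MM} (hX : InG M X) {i j : ι} {d : F} {v : Fin m → F}
    (hd0 : d ≠ 0) (hd : star d = -d) (hv0 : v ≠ 0) (hv : sp v v = 0) :
    Root (slotM j M) (rI j (X * sl i (d • vecMulVec v (star v)) * Xᴴ)) := by
  classical
  obtain ⟨w, -, -, hwv⟩ := H99.TensorU.partner A.ns hv0 hv
  have hXX : X * Xᴴ = 1 := by
    obtain ⟨x, hx, rfl⟩ := hX
    exact A.iso x hx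
  have hXX' : Xᴴ * X = 1 := mul_eq_one_comm.1 hXX
  let φ : ({l : ι // l ≠ j} → Fin m) ≃ ({l : ι // l ≠ i} → Fin m) :=
    Fintype.equivOfCardEq (card_others_eq i j)
  refine ⟨d, (X * incl i v).submatrix (eI j).symm φ, ((incl i w)ᴴ * Xᴴ).submatrix φ (eI j).symm, hd0, hd, ?_, ?_, ?_,
    fun r hr => ?_⟩
  · rw [Matrix.submatrix_mul_equiv, Matrix.mul_assoc, ← Matrix.mul_assoc Xᴴ, hXX', Matrix.one_mul,
      incl_conjTranspose_mul, hwv, one_smul, submatrix_one_equiv]
  · rw [conjTranspose_submatrix, Matrix.submatrix_mul_equiv, conjTranspose_mul, Matrix.mul_assoc,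
      ← Matrix.mul_assoc Xᴴ, hXX', Matrix.one_mul, incl_conjTranspose_mul, hv, zero_smul, submatrix_zero]
    rfl
  · have h1 : X * incl i v * (X * incl i v)ᴴ = X * sl i (vecMulVec v (star v)) * Xᴴ := by
      rw [conjTranspose_mul, ← incl_mul_conjTranspose]
      simp only [Matrix.mul_assoc]
    rw [conjTranspose_submatrix, Matrix.submatrix_mul_equiv, h1, H5.C7.sl_smul, Matrix.mul_smul, Matrix.smul_mul,
      map_smul]
    rfl
  · have hrd : star (r * d) = -(r * d) := by rw [star_mul', hr, hd, mul_neg]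
    obtain ⟨hu, hdt⟩ := H99.TensorU.trans_unitary hv hrd
    obtain ⟨y, hy, e⟩ := InG.mul (InG.mul hX (A.slot i _ hu hdt)) (InG.inv A hX)
    refine H5.C7.inM_slotM.2 ⟨y, hy, ?_⟩
    rw [e, H5.C7.sl_add, H5.C7.sl_one, Matrix.mul_add, Matrix.add_mul, Matrix.mul_one, hXX, map_add, map_one,
      H5.C7.sl_smul, H5.C7.sl_smul, Matrix.mul_smul, Matrix.smul_mul, Matrix.mul_smul, Matrix.smul_mul, map_smul,
      map_smul, smul_smul]

/-- With scalar layers at every factor and split roots all members are monomial tensors. -/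
theorem Amb.isWreath [Finite F] (A : Amb M)
    (hroot : ∀ i, Good M i → ∀ B, Root (slotM i M) B →
      (∃ G : Matrix ({l : ι // l ≠ i} → Fin m) ({l : ι // l ≠ i} → Fin m) F, B = G ⊗ₖ (1 : mm)) ∨
      ∃ N : mm, B = (1 : Matrix ({l : ι // l ≠ i} → Fin m) ({l : ι // l ≠ i} → Fin m) F) ⊗ₖ N)
    (hgood : ∀ i, Good M i) {X : MM} (hX : InG M X) : IsWreath X := by
  classical
  have hne : Nonempty ι := Fintype.card_pos_iff.1 (by have := A.two; omega)
  have hm : 2 ≤ m := by have := A.three; omega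
  have hXX : X * Xᴴ = 1 := by
    obtain ⟨x, hx, rfl⟩ := hX
    exact A.iso x hx
  have hXX' : Xᴴ * X = 1 := mul_eq_one_comm.1 hXX
  refine H5.C7.isWreath_of_slots hm (suRoots_nonempty A.ns hm) (suRoots_adjoin A.ns hm)
    (suRoots_conn A.ns hm) hXX fun i r hr => ?_
  obtain ⟨d, v, hd0, hd, hv0, hv, rfl⟩ := hr
  set N₀ : MM := sl i (d • vecMulVec v (star v)) with hN₀
  have hY : X * sl i (1 + d • vecMulVec v (star v)) * Xᴴ - 1 = X * N₀ * Xᴴ := by
    rw [H5.C7.sl_add, H5.C7.sl_one, Matrix.mul_add, Matrix.add_mul, Matrix.mul_one, hXX, add_sub_cancel_left]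
  refine H5.C7.exists_slot (by omega) ?_ fun j => ?_
  · rw [hY, show X * N₀ * Xᴴ * (X * N₀ * Xᴴ) = X * (N₀ * ((Xᴴ * X) * N₀)) * Xᴴ by simp only [Matrix.mul_assoc],
      hXX', Matrix.one_mul, hN₀, H5.C7.sl_mul, Matrix.smul_mul, Matrix.mul_smul, vmv_mul, hv, zero_smul, smul_zero,
      smul_zero, H5.C7.sl_zero, Matrix.mul_zero, Matrix.zero_mul]
  rcases hroot j (hgood j) _ (root_conj A hX (i := i) (j := j) hd0 hd hv0 hv) with ⟨G, hG⟩ | ⟨N, hN⟩
  · exact Or.inl (H5.C7.scalarAt_of_rI (K := G) (by rw [hY, hN₀, hG]))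
  · refine Or.inr ⟨1 + N, (rI j).injective ?_⟩
    rw [← sub_add_cancel (X * sl i (1 + d • vecMulVec v (star v)) * Xᴴ) 1, hY, map_add, map_one, hN₀, hN,
      H5.C7.rI_sl_self, kronecker_add, one_kronecker_one, add_comm]

end Cfsg.Agent.H90.TensorWreathSU
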