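import Cfsg.Agent.H58.Wreath.SU.Shift
import Cfsg.Agent.H83.TensorWreathSU.Split

/-!
Roots are pure: with a further fixed scalar every root that is not pure lies over a plane, hence over an
isotropic line, where the layers are scalar.
-/

set_option autoImplicit false
set_option linter.unusedSectionVars false
set_option maxHeartbeats 400000

namespace Cfsg.Agent.H90.TensorWreathSU

open Matrix
open Cfsg.Agent.H99.Tensor
open Cfsg.Agent.H99.TensorU (sp exists_iso_not_perp exists_iso_in finrank_perp lft_conjTranspose rgt_conjTranspose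
  sp_sub_right sp_smul_right)
open Cfsg.Agent.H58.Wreath.SU
open scoped Kronecker

variable {F : Type*} [Field F] [StarRing F] [Finite F] {α : Type} [Fintype α] [DecidableEq α] [Nonempty α] {b : ℕ}

local notation "Ix" => α × Fin b

theorem lft_sum {ι : Type} (s : Finset ι) (f : ι → Fin b → F) :
    lft α (∑ i ∈ s, f i) = ∑ i ∈ s, lft α (f i) := by
  classical
  induction s using Finset.induction_on with
  | empty => simp [lft_zero]
  | insert a s ha ih => rw [Finset.sum_insert ha, Finset.sum_insert ha, lft_add, ih]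

/-- A root over the planes through every isotropic vector is pure. -/
theorem pure_of_planes {M : Subgroup (GL Ix F)} (H : Setup M) {d₁ : F} {P₁ : Matrix Ix α F} {L : Matrix α Ix F}
    (hL : L * P₁ = 1) (hP : P₁ᴴ * P₁ = 0) (hmem : InM M (1 + d₁ • (P₁ * P₁ᴴ)))
    (hplane : ∀ w : Fin b → F, w ≠ 0 → sp w w = 0 → ∀ η, sp w η = 0 → ∃ k : F, P₁ᴴ * lft α (η + k • w) = 0) :
    IsPure (1 + d₁ • (P₁ * P₁ᴴ)) := by
  classical
  have := H.neZero
  have hι : 2 ≤ Fintype.card (Fin b) := by rw [Fintype.card_fin]; have := H.three; omega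
  -- a vector killed by the root
  obtain ⟨x, hx0, hx⟩ : ∃ x : Fin b → F, x ≠ 0 ∧ P₁ᴴ * lft α x = 0 := by
    obtain ⟨w, -, hw0, hw⟩ := exists_iso_in H.ns (⊤ : Submodule F (Fin b → F)) (by simpa using hι)
    obtain ⟨U, hU, hUw⟩ := finrank_perp ![w]
    obtain ⟨η, hη, hηw⟩ : ∃ η ∈ U, η ∉ Submodule.span F {w} := by
      by_contra h
      push Not at h
      have h1 := Submodule.finrank_mono (show U ≤ Submodule.span F {w} from h)
      rw [finrank_span_singleton hw0] at h1
      rw [Fintype.card_fin] at hU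
      have := H.three
      omega
    obtain ⟨k, hk⟩ := hplane w hw0 hw η (hUw η hη 0)
    refine ⟨η + k • w, fun h0 => hηw ?_, hk⟩
    rw [eq_neg_of_add_eq_zero_left h0]
    exact Submodule.neg_mem _ (Submodule.smul_mem _ _ (Submodule.mem_span_singleton_self _))
  obtain ⟨w, hw, hxw⟩ := exists_iso_not_perp H.ns hι hx0
  have hw0 : w ≠ 0 := fun h => hxw (by rw [h, H99.TensorU.sp_zero_right])
  have hwx : sp w x ≠ 0 := fun h => hxw (H99.TensorU.sp_zero_comm.1 h)
  set R₀ := P₁ᴴ * lft α w with hR₀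
  have hmul : ∀ u : Fin b → F, ∃ c : F, P₁ᴴ * lft α u = c • R₀ := by
    intro u
    set η := u - (sp w u / sp w x) • x with hη
    have hwη : sp w η = 0 := by rw [hη, sp_sub_right, sp_smul_right, div_mul_cancel₀ _ hwx, sub_self]
    obtain ⟨k, hk⟩ := hplane w hw0 hw η hwη
    refine ⟨-k, ?_⟩
    have e : u = (η + k • w) + ((sp w u / sp w x) • x + (-k) • w) := by rw [hη]; module
    rw [e, lft_add, Matrix.mul_add, hk, zero_add, lft_add, lft_smul, lft_smul, Matrix.mul_add, Matrix.mul_smul, hx,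
      smul_zero, zero_add, Matrix.mul_smul]
  choose c hc using fun j : Fin b => hmul (Pi.single j 1)
  set n : Fin b → F := star c with hn
  set R := R₀ᴴ with hR
  have hP1 : P₁ = lft α n * R := by
    ext ⟨i, j⟩ a
    have e := congrFun (congrFun (hc j) a) i
    rw [Matrix.mul_apply, Fintype.sum_prod_type, Finset.sum_eq_single i, Finset.sum_eq_single j] at e
    rotate_left
    · intro l _ hl; simp [lft_apply, Pi.single_eq_of_ne hl]
    · simp
    · intro l _ hl; simp [lft_apply, hl]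
    · simp
    simp [lft_apply] at e
    rw [Matrix.mul_apply, Finset.sum_eq_single i]
    · simp only [lft_apply, if_pos, hn, hR, Matrix.conjTranspose_apply, Pi.star_apply]
      have e' := congrArg star e
      simp only [star_star, star_mul'] at e'
      exact e'
    · intro l _ hl; simp [lft_apply, Ne.symm hl]
    · simp
  have hRdet : R.det ≠ 0 := by
    intro h0
    have e := congrArg Matrix.det hL
    rw [hP1, ← Matrix.mul_assoc, det_mul, h0, mul_zero, det_one] at e
    exact zero_ne_one e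
  have hn0 : n ≠ 0 := by
    intro h0
    rw [h0, lft_zero, Matrix.zero_mul] at hP1
    rw [hP1, Matrix.mul_zero] at hL
    exact zero_ne_one hL
  have hnn : sp n n = 0 := by
    have e := hP
    rw [hP1, conjTranspose_mul, lft_conjTranspose, Matrix.mul_assoc, ← Matrix.mul_assoc (rgt α (star n)),
      rgt_star_lft, Matrix.smul_mul, Matrix.one_mul, Matrix.mul_smul, smul_eq_zero] at e
    refine e.resolve_right fun h => ?_
    have := congrArg Matrix.det h
    rw [det_mul, det_conjTranspose, det_zero] at this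
    rcases mul_eq_zero.1 this with h | h
    · exact hRdet (star_eq_zero.1 h)
    · exact hRdet h
  have hB : d₁ • (P₁ * P₁ᴴ) = (d₁ • (R * Rᴴ)) ⊗ₖ vecMulVec n (star n) := by
    rw [smul_kronecker, ← lft_mid_rgt, hP1, conjTranspose_mul, lft_conjTranspose]
    simp only [Matrix.mul_assoc]
  obtain ⟨s, hs⟩ := H.good n _ hn0 hnn (hB ▸ hmem)
  exact ⟨1, 1 + s • vecMulVec n (star n), by
    rw [kronecker_add, one_kronecker_one, kronecker_smul, ← smul_kronecker, hB, hs]⟩

variable {M : Subgroup (GL (α × Fin b) F)} (H : Setup M)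
include H

/-- With a further fixed scalar every root is pure. -/
theorem root_pure_fixed (hr : ∃ r : F, star r = r ∧ r ≠ 0 ∧ r ≠ 1)
    (hdp : ∀ S : Frame M, ¬ IsPure (1 + S.B) → S.Fine → S.Dp)
    (hmover : ∀ S : Frame M, ¬ IsPure (1 + S.B) → S.Fine → (∃ r : F, star r = r ∧ r ≠ 0 ∧ r ≠ 1) →
      ((2 : F) = 0 ∨ ¬ IsNilpotent S.θ) → ∃ g ∈ S.K, ∃ c : F, c ≠ 0 ∧
        (g : Matrix Ix Ix F) * S.A * (g : Matrix Ix Ix F)ᴴ = c • S.A ∧ (g : Matrix Ix Ix F) * S.P ≠ S.P)
    {B : Matrix Ix Ix F} (hB : Root M B) : IsPure (1 + B) := by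
  by_contra hnp
  -- the invariants are regular
  have hdet : ∀ S : Frame M, ¬ IsPure (1 + S.B) → S.θ.det ≠ 0 := by
    intro S hS h0
    obtain ⟨v, hv0, hv⟩ := Matrix.exists_mulVec_eq_zero_iff.2 h0
    obtain ⟨S', -, hS', ht, hred, hker⟩ := S.exists_fine H hS
    have hfine := S'.fine_of_tight H ht hred
    obtain ⟨g, hg, c, hc, hA, hne⟩ := hmover S' hS' hfine hr (Or.inr (S'.not_nilpotent H hS'))
    exact (S'.torus H ht (hdp S' hS' hfine) hg hc hA hne).1
      (Matrix.exists_mulVec_eq_zero_iff.1 ⟨v, hv0, hker v hv⟩)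
  obtain ⟨d₁, P₁, L, hd₁0, hd₁, hL, hP, rfl, hmem⟩ := hB
  refine hnp (pure_of_planes H hL hP (by simpa using hmem 1 (star_one F)) fun w hw0 hw η hη => ?_)
  obtain ⟨d, hd0, hd⟩ := H99.TensorU.exists_skew H.ns
  let S : Frame M := ⟨w, d, d₁, P₁, L, hw0, hw, hd0, hd, hd₁0, hd₁, hL, hP, hmem⟩
  have h := hdet S hnp
  have hfine : S.Fine := ⟨S.tight_of_det h, Or.inr (Or.inr h)⟩
  obtain ⟨g, hg, c, hc, hA, hne⟩ := hmover S hnp hfine hr (Or.inr (S.not_nilpotent H hnp))
  exact (S.torus H (S.tight_of_det h) (S.dp_of_det h) hg hc hA hne).2 η hη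

/-- Every root is pure, given the characteristic two case. -/
theorem root_pure_of
    (hdp : ∀ S : Frame M, ¬ IsPure (1 + S.B) → S.Fine → S.Dp)
    (hmover : ∀ S : Frame M, ¬ IsPure (1 + S.B) → S.Fine → (∃ r : F, star r = r ∧ r ≠ 0 ∧ r ≠ 1) →
      ((2 : F) = 0 ∨ ¬ IsNilpotent S.θ) → ∃ g ∈ S.K, ∃ c : F, c ≠ 0 ∧
        (g : Matrix Ix Ix F) * S.A * (g : Matrix Ix Ix F)ᴴ = c • S.A ∧ (g : Matrix Ix Ix F) * S.P ≠ S.P)
    (htwo : (2 : F) = 0 → 4 ≤ b → ∀ B, Root M B → IsPure (1 + B))
    {B : Matrix Ix Ix F} (hB : Root M B) : IsPure (1 + B) := by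
  by_cases hr : ∃ r : F, star r = r ∧ r ≠ 0 ∧ r ≠ 1
  · exact root_pure_fixed H hr hdp hmover hB
  have h2 : (2 : F) = 0 := by
    by_contra h2
    exact hr ⟨-1, by rw [star_neg, star_one], neg_ne_zero.2 one_ne_zero, fun h => h2 (by linear_combination -h)⟩
  exact htwo h2 (H.big.resolve_right hr) B hB

end Cfsg.Agent.H90.TensorWreathSU
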