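import Cfsg.Agent.H5.C7.Endgame
import Cfsg.Agent.H99.TensorU.Group

/-!
The unitary transvections of one factor generate all matrices and are connected by non-commuting pairs.
-/

set_option autoImplicit false
set_option linter.unusedSectionVars false
set_option maxHeartbeats 400000

namespace Cfsg.Agent.H90.TensorWreathSU

open Matrix
open Cfsg.Agent.H99.TensorU

variable {F : Type*} [Field F] [StarRing F] {m : ℕ}

local notation "mm" => Matrix (Fin m) (Fin m) F

/-- The unitary transvections. -/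
def suRoots (F : Type*) [Field F] [StarRing F] (m : ℕ) : Set (Matrix (Fin m) (Fin m) F) :=
  {r | ∃ (d : F) (v : Fin m → F), d ≠ 0 ∧ star d = -d ∧ v ≠ 0 ∧ sp v v = 0 ∧ r = 1 + d • vecMulVec v (star v)}

variable [Finite F] (hns : ∃ x : F, star x ≠ x) (hm : 2 ≤ m)
include hns hm

theorem suRoots_nonempty : (suRoots F m).Nonempty := by
  obtain ⟨d, hd0, hd⟩ := exists_skew hns
  obtain ⟨v, -, hv0, hv⟩ := exists_iso_in hns (⊤ : Submodule F (Fin m → F)) (by simpa using hm)
  exact ⟨_, d, v, hd0, hd, hv0, hv, rfl⟩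

theorem suRoots_conn : ∀ r ∈ suRoots F m, ∀ s ∈ suRoots F m,
    ∃ u ∈ suRoots F m, r * u ≠ u * r ∧ u * s ≠ s * u := by
  have key : ∀ (d e : F) (v u : Fin m → F), d ≠ 0 → e ≠ 0 → v ≠ 0 → sp v v = 0 → sp v u ≠ 0 →
      (1 + d • vecMulVec v (star v) : mm) * (1 + e • vecMulVec u (star u)) ≠
        (1 + e • vecMulVec u (star u)) * (1 + d • vecMulVec v (star v)) := by
    intro d e v u hd he hv hvv hvu h
    have h2 : (d * e) • (vecMulVec v (star v) * vecMulVec u (star u)) =
        (d * e) • (vecMulVec u (star u) * vecMulVec v (star v)) := by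
      have h' := sub_eq_zero.2 h
      rw [← sub_eq_zero, ← h']
      simp only [Matrix.add_mul, Matrix.mul_add, Matrix.one_mul, Matrix.mul_one, Matrix.smul_mul, Matrix.mul_smul]
      module
    rw [smul_right_inj (mul_ne_zero hd he), vmv_mul, vmv_mul] at h2
    have h3 := congrArg (· *ᵥ v) h2
    simp only [Matrix.smul_mulVec, vmv_mulVec, hvv, zero_smul, smul_zero, smul_smul, smul_eq_zero, mul_eq_zero] at h3
    rcases h3 with (h3 | h3) | h3
    · exact hvu h3
    · exact hvu (sp_zero_comm.1 h3)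
    · exact hv h3
  rintro r ⟨d, v, hd0, hd, hv0, hv, rfl⟩ s ⟨e, w, he0, he, hw0, hw, rfl⟩
  obtain ⟨u, huu, hvu, hwu⟩ := exists_iso_not_perp₂ hns (by simpa using hm) hv0 hw0
  obtain ⟨c, hc0, hc⟩ := exists_skew hns
  have hu0 : u ≠ 0 := fun h => hvu (by rw [h, sp_zero_right])
  exact ⟨_, ⟨c, u, hc0, hc, hu0, huu, rfl⟩, key d c v u hd0 hc0 hv0 hv hvu,
    (key e c w u he0 hc0 hw0 hw hwu).symm⟩

theorem suRoots_adjoin : Algebra.adjoin F (suRoots F m) = ⊤ := by
  set S := Algebra.adjoin F (suRoots F m) with hS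
  obtain ⟨d, hd0, hd⟩ := exists_skew hns
  have hι : 2 ≤ Fintype.card (Fin m) := by simpa using hm
  have hdiag : ∀ v : Fin m → F, v ≠ 0 → sp v v = 0 → vecMulVec v (star v) ∈ S := by
    intro v hv0 hv
    have := S.sub_mem (Algebra.subset_adjoin (R := F)
      (show (1 + d • vecMulVec v (star v) : mm) ∈ suRoots F m from ⟨d, v, hd0, hd, hv0, hv, rfl⟩)) S.one_mem
    rw [add_sub_cancel_left] at this
    simpa [smul_smul, inv_mul_cancel₀ hd0] using S.smul_mem this d⁻¹
  have hne : ∀ u v : Fin m → F, sp u u = 0 → sp v v = 0 → sp u v ≠ 0 → vecMulVec u (star v) ∈ S := by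
    intro u v hu hv h
    have hu0 : u ≠ 0 := fun h0 => h (by rw [h0, sp_zero_left])
    have hv0 : v ≠ 0 := fun h0 => h (by rw [h0, sp_zero_right])
    have := S.smul_mem (S.mul_mem (hdiag u hu0 hu) (hdiag v hv0 hv)) (sp u v)⁻¹
    rwa [vmv_mul, smul_smul, inv_mul_cancel₀ h, one_smul] at this
  have hiso : ∀ u v : Fin m → F, sp u u = 0 → sp v v = 0 → vecMulVec u (star v) ∈ S := by
    intro u v hu hv
    by_cases hu0 : u = 0
    · rw [hu0, zero_vecMulVec]; exact S.zero_mem
    by_cases hv0 : v = 0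
    · rw [hv0, star_zero, vecMulVec_zero]; exact S.zero_mem
    obtain ⟨w, hw, huw⟩ := exists_iso_not_perp hns hι hu0
    have hw0 : w ≠ 0 := fun h => huw (by rw [h, sp_zero_right])
    obtain ⟨x, hx, hwx, hvx⟩ := exists_iso_not_perp₂ hns hι hw0 hv0
    have := S.smul_mem (S.mul_mem (hne u w hu hw huw)
      (hne x v hx hv fun h => hvx (sp_zero_comm.1 h))) (sp w x)⁻¹
    rwa [vmv_mul, smul_smul, inv_mul_cancel₀ hwx, one_smul] at this
  have hdec : ∀ a : Fin m → F, ∃ (p w : Fin m → F) (c : F), sp p p = 0 ∧ sp w w = 0 ∧ a = p + c • w := by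
    intro a
    by_cases ha : a = 0
    · exact ⟨0, 0, 0, sp_zero_left _, sp_zero_left _, by simp [ha]⟩
    obtain ⟨w, hw, haw⟩ := exists_iso_not_perp hns hι ha
    obtain ⟨s, hs⟩ := exists_trace hns (a := -(sp a a)) (by rw [star_neg, sp_star])
    refine ⟨a + (s / sp a w) • w, w, -(s / sp a w), ?_, hw, by module⟩
    have h1 : s / sp a w * sp a w = s := div_mul_cancel₀ _ haw
    have h2 : star (s / sp a w) * sp w a = star s := by rw [← sp_star a w, ← star_mul', h1]
    rw [sp_add_left, sp_add_right, sp_add_right, sp_smul_left, sp_smul_left, sp_smul_right, sp_smul_right, hw]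
    linear_combination hs + h1 + h2
  have hall : ∀ a b : Fin m → F, vecMulVec a (star b) ∈ S := by
    intro a b
    obtain ⟨p, w, c, hp, hw, rfl⟩ := hdec a
    obtain ⟨p', w', c', hp', hw', rfl⟩ := hdec b
    rw [vmv_add_left, vmv_add_right, vmv_add_right, vmv_smul_left, vmv_smul_left, vmv_smul_right,
      vmv_smul_right]
    exact S.add_mem (S.add_mem (hiso _ _ hp hp') (S.smul_mem (hiso _ _ hp hw') _))
      (S.add_mem (S.smul_mem (hiso _ _ hw hp') _) (S.smul_mem (S.smul_mem (hiso _ _ hw hw') _) _))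
  refine eq_top_iff.2 fun X hX => ?_
  clear hX
  induction X using Matrix.induction_on' with
  | h_zero => exact S.zero_mem
  | h_add p q hp hq => exact S.add_mem hp hq
  | h_std_basis i j x =>
    have e : (Matrix.single i j x : mm) = vecMulVec (Pi.single i x) (star (Pi.single j (1 : F) : Fin m → F)) := by
      ext a b
      rw [Matrix.single_apply, vecMulVec_apply]
      by_cases h1 : i = a <;> by_cases h2 : j = b <;> simp [h1, h2, Pi.single_apply, eq_comm]
    rw [e]; exact hall _ _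

end Cfsg.Agent.H90.TensorWreathSU
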